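import Cfsg.Agent.H875.TenPair

/-!
# Overgroups of `Sp(U) ⊗ O(W)`: the unipotent radical of the stabiliser of `a ⊗ W` (helper879)
-/

set_option autoImplicit false
set_option linter.unusedSimpArgs false
open Cfsg
open scoped Matrix TensorProduct
open Cfsg.Agent.ClassicalGeometry.SympBasic Cfsg.Agent.ClassicalGeometry.SympSiegel

namespace Cfsg.Agent.H879.TenS

open Cfsg.Agent.H875 Cfsg.Agent.H875.Ten

variable {F : Type*} [Field F] {m : ℕ}

local notation "V" => (Fin m ⊕ Fin m → F)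
local notation "G" => Matrix.symplecticGroup (Fin m) F
local notation "f" => sympForm m F

variable {U W : Type*} [AddCommGroup U] [Module F U] [AddCommGroup W] [Module F W]
variable {A : LinearMap.BilinForm F U} {B : LinearMap.BilinForm F W}
  {Θ : U ⊗[F] W ≃ₗ[F] (Fin m ⊕ Fin m → F)} {M : Subgroup (Matrix.symplecticGroup (Fin m) F)}

/-- `M` contains `v ↦ v + b ⊗ δ' ct_a v + a ⊗ δ ct_b v + a ⊗ γ ct_a v`. -/
def InR (Θ : U ⊗[F] W ≃ₗ[F] (Fin m ⊕ Fin m → F)) (A : LinearMap.BilinForm F U)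
    (M : Subgroup (Matrix.symplecticGroup (Fin m) F)) (a b : U) (δ δ' γ : W →ₗ[F] W) : Prop :=
  ∃ g ∈ M, ∀ v, g • v = v + tn Θ b (δ' (ct Θ A a v)) + tn Θ a (δ (ct Θ A b v)) +
    tn Θ a (γ (ct Θ A a v))

theorem InR_isom (h : TS A B Θ) (hH : ∀ g, InH Θ g → g ∈ M) {σ : U →ₗ[F] U}
    (hσ : ∀ u u', A (σ u) (σ u') = A u u') {a b : U} {δ δ' γ : W →ₗ[F] W}
    (hK : InR Θ A M a b δ δ' γ) : InR Θ A M (σ a) (σ b) δ δ' γ := by
  obtain ⟨g, hg, hgv⟩ := hK
  obtain ⟨k, hk, hku⟩ := h.exists_U hσ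
  refine ⟨k * g * k⁻¹, M.mul_mem (M.mul_mem (hH k hk) hg) (M.inv_mem (hH k hk)), fun v => ?_⟩
  have h1 : ∀ x, ct Θ A x (k⁻¹ • v) = ct Θ A (σ x) v := fun x =>
    h.extW fun w => h.ct_inv (y := id) (fun w => hku x w) v w
  rw [mul_smul, mul_smul, hgv, smul_add', smul_add', smul_add', smul_inv_smul, hku, hku, hku, h1, h1]

/-- Products of such elements. -/
theorem InR_mul (h : TS A B Θ) {a b : U} (hab : A a b = 0) {δ₁ δ₁' γ₁ δ₂ δ₂' γ₂ : W →ₗ[F] W}
    (h1 : InR Θ A M a b δ₁ δ₁' γ₁) (h2 : InR Θ A M a b δ₂ δ₂' γ₂) :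
    InR Θ A M a b (δ₁ + δ₂) (δ₁' + δ₂') (γ₁ + γ₂) := by
  have hba : A b a = 0 := by rw [h.swap, hab, neg_zero]
  obtain ⟨g, hg, hgv⟩ := h1
  obtain ⟨k, hk, hkv⟩ := h2
  refine ⟨g * k, M.mul_mem hg hk, fun v => ?_⟩
  rw [mul_smul, hkv, hgv]
  simp only [map_add, map_sub, ct_tn, h.alt, hab, hba, zero_smul, sub_zero, add_zero,
    LinearMap.add_apply, tn_add_right]
  abel

/-- `-1` on a hyperbolic plane. -/
theorem exists_neg (h : TS A B Θ) {a b z : U} (hab : A a b = 0) (hza : A z a = 0)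
    (hzb : A z b ≠ 0) : ∃ σ : U →ₗ[F] U, (∀ u u', A (σ u) (σ u') = A u u') ∧ σ a = a ∧ σ b = -b := by
  refine ⟨LinearMap.id - (2 / A z b) • (rk A b z - rk A z b), ?_, ?_, ?_⟩
  · intro u u'
    simp only [LinearMap.sub_apply, LinearMap.id_apply, LinearMap.smul_apply, rk_apply, map_sub,
      map_smul, smul_eq_mul, h.alt, h.swap b u', h.swap z u', h.swap b z]
    field_simp
    ring
  · simp only [LinearMap.sub_apply, LinearMap.id_apply, LinearMap.smul_apply, rk_apply, hab,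
      h.swap a z, hza, neg_zero, zero_smul, sub_zero, smul_zero]
  · simp only [LinearMap.sub_apply, LinearMap.id_apply, LinearMap.smul_apply, rk_apply, h.alt,
      h.swap b z, zero_smul, zero_sub, neg_smul, neg_neg, smul_smul]
    rw [div_mul_cancel₀ _ hzb]
    module

/-- The third component is scalar. -/
theorem scalar_gamma (h2 : (2 : F) ≠ 0) (h : TS A B Θ) (hH : ∀ g, InH Θ g → g ∈ M)
    (hscal : ∀ (x : U) (S : W →ₗ[F] W), x ≠ 0 → InAt Θ A M x S → ∃ c : F, S = c • LinearMap.id)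
    {a b : U} (ha : a ≠ 0) (hab : A a b = 0) (hb : ∀ c : F, b ≠ c • a) {δ δ' γ : W →ₗ[F] W}
    (hK : InR Θ A M a b δ δ' γ) : ∃ c : F, γ = c • LinearMap.id := by
  obtain ⟨z, hza, hzb⟩ : ∃ z, A z a = 0 ∧ A z b ≠ 0 := by
    by_contra hc
    push Not at hc
    obtain ⟨c, hc'⟩ := h.mem_line ha hc
    exact hb c hc'
  obtain ⟨σ, hσ, hσa, hσb⟩ := exists_neg h hab hza hzb
  have h3 := InR_isom h hH hσ hK
  rw [hσa, hσb] at h3
  have h4 : InR Θ A M a b (-δ) (-δ') γ := by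
    obtain ⟨g, hg, hgv⟩ := h3
    refine ⟨g, hg, fun v => ?_⟩
    rw [hgv, ct_neg, map_neg, tn_neg_left, tn_neg_right, LinearMap.neg_apply, LinearMap.neg_apply,
      tn_neg_right, tn_neg_right]
  obtain ⟨g, hg, hgv⟩ := InR_mul h hab hK h4
  obtain ⟨c, hc⟩ := hscal a (γ + γ) ha ⟨g, hg, fun v => by
    rw [hgv]
    simp only [add_neg_cancel, LinearMap.zero_apply, tn_zero_right, add_zero]⟩
  refine ⟨c / 2, ?_⟩
  have h5 : (2 : F) • γ = c • LinearMap.id := by rw [two_smul, hc]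
  have h6 : γ = (2 : F)⁻¹ • (2 : F) • γ := by rw [smul_smul, inv_mul_cancel₀ h2, one_smul]
  rw [h6, h5, smul_smul]
  congr 1
  field_simp

/-- The element `1 + c a ⊗ ct_a`. -/
theorem InR_t (h : TS A B Θ) (hH : ∀ g, InH Θ g → g ∈ M) (a b : U) (c : F) :
    InR Θ A M a b 0 0 (c • LinearMap.id) := by
  obtain ⟨g, hg, hgv⟩ := h.exists_tU a c
  refine ⟨g, hH g hg, fun v => ?_⟩
  rw [hgv]
  simp only [LinearMap.zero_apply, tn_zero_right, add_zero, LinearMap.smul_apply, tn_smul_right,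
    LinearMap.id_apply]

/-- The element `1 + c (a ⊗ ct_b + b ⊗ ct_a)`. -/
theorem InR_e (h : TS A B Θ) (hH : ∀ g, InH Θ g → g ∈ M) {a b : U} (hab : A a b = 0) (c : F) :
    InR Θ A M a b (c • LinearMap.id) (c • LinearMap.id) 0 := by
  obtain ⟨g, hg, hgv⟩ := h.exists_eU (x := a) (y := c • b) (by rw [map_smul, hab, smul_zero])
  refine ⟨g, hH g hg, fun v => ?_⟩
  rw [hgv]
  simp only [LinearMap.zero_apply, tn_zero_right, add_zero, LinearMap.smul_apply, tn_smul_right,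
    LinearMap.id_apply, tn_smul_left, ct_smul]

/-- **Elements `1 + b ⊗ δ' ct_a + a ⊗ δ ct_b + a ⊗ γ ct_a` of `M` have scalar `δ`.** -/
theorem scalar_of_InR (h2 : (2 : F) ≠ 0) (h : TS A B Θ) [FiniteDimensional F W]
    (hdim : 3 ≤ Module.finrank F W) {s₀ : W} (hs0 : s₀ ≠ 0) (hs : B s₀ s₀ = 0)
    (hH : ∀ g, InH Θ g → g ∈ M)
    (hscal : ∀ (x : U) (S : W →ₗ[F] W), x ≠ 0 → InAt Θ A M x S → ∃ c : F, S = c • LinearMap.id)
    {a b : U} (ha : a ≠ 0) (hab : A a b = 0) (hb : ∀ c : F, b ≠ c • a) {δ δ' γ : W →ₗ[F] W}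
    (hδ : ∀ x y, B (δ' x) y = B x (δ y)) (hK : InR Θ A M a b δ δ' γ) :
    ∃ c : F, δ = c • LinearMap.id := by
  have hba : A b a = 0 := by rw [h.swap, hab, neg_zero]
  obtain ⟨z, hza, hzb⟩ : ∃ z, A z a = 0 ∧ A z b ≠ 0 := by
    by_contra hc
    push Not at hc
    obtain ⟨c, hc'⟩ := h.mem_line ha hc
    exact hb c hc'
  have haz : A a z = 0 := by rw [h.swap, hza, neg_zero]
  obtain ⟨c₁, hc₁⟩ := scalar_gamma h2 h hH hscal ha hab hb hK
  -- remove `γ`
  have hK1 : InR Θ A M a b δ δ' 0 := by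
    have := InR_mul h hab hK (InR_t h hH a b (-c₁))
    rwa [add_zero, add_zero, hc₁, ← add_smul, add_neg_cancel, zero_smul] at this
  -- `δ + δ'` is scalar
  obtain ⟨c₂, hc₂⟩ : ∃ c : F, δ + δ' = c • LinearMap.id := by
    obtain ⟨g, hg, hgv⟩ := hK1
    obtain ⟨e, he, hev⟩ := InR_e h hH (a := a) (b := z) haz 1
    have key : InAt Θ A M a (A z b • (δ + δ')) := by
      refine ⟨g * e * (e * g)⁻¹, M.mul_mem (M.mul_mem hg he) (M.inv_mem (M.mul_mem he hg)),
        fun v => ?_⟩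
      obtain ⟨v, rfl⟩ : ∃ v', v = (e * g) • v' := ⟨(e * g)⁻¹ • v, by rw [smul_inv_smul]⟩
      rw [mul_smul, inv_smul_smul, mul_smul, mul_smul, hgv, hgv, hev, hev]
      simp only [map_add, map_sub, ct_tn, h.alt, hab, hba, hza, haz, zero_smul, sub_zero, add_zero,
        LinearMap.sub_apply, LinearMap.add_apply, LinearMap.smul_apply, LinearMap.zero_apply,
        LinearMap.id_apply, one_smul, h.swap b z, tn_sub_right, tn_add_right, tn_smul_right,
        map_smul, neg_smul, tn_neg_right, map_zero, tn_zero_right, map_neg, smul_zero, neg_zero,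
        zero_add]
      module
    obtain ⟨c, hc⟩ := hscal a _ ha key
    refine ⟨(A z b)⁻¹ * c, ?_⟩
    rw [mul_smul, ← hc, smul_smul, inv_mul_cancel₀ hzb, one_smul]
  -- the skew part
  set K : W →ₗ[F] W := δ - (c₂ / 2) • LinearMap.id with hKdef
  have hδ' : δ' = c₂ • LinearMap.id - δ := by rw [← hc₂]; abel
  have hsk : Sk B (-K) := by
    intro x y
    have h1 := hδ x y
    rw [hδ'] at h1
    simp only [hKdef, LinearMap.neg_apply, LinearMap.sub_apply, LinearMap.smul_apply,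
      LinearMap.id_apply, map_sub, map_smul, map_neg, smul_eq_mul] at h1 ⊢
    have h3 : (c₂ / 2) * 2 = c₂ := div_mul_cancel₀ _ h2
    linear_combination h1 + (B x y) * h3
  have hKM : InP Θ A M b a (-K) := by
    obtain ⟨g, hg, hgv⟩ := InR_mul h hab hK1 (InR_e h hH hab (-(c₂ / 2)))
    refine ⟨g, hg, fun v => ?_⟩
    rw [hgv, hδ']
    have h3 : c₂ = (c₂ / 2) + (c₂ / 2) := by field_simp; ring
    simp only [hKdef, LinearMap.neg_apply, LinearMap.sub_apply, LinearMap.smul_apply,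
      LinearMap.add_apply, LinearMap.id_apply, LinearMap.zero_apply, tn_sub_right, tn_add_right,
      tn_smul_right, tn_neg_right, tn_zero_right, neg_smul, add_zero]
    nth_rewrite 1 [h3]
    module
  have h0 := h.pair_zero h2 hdim hs0 hs hH hscal ha hba hb hsk hKM
  refine ⟨c₂ / 2, ?_⟩
  rw [neg_eq_zero] at h0
  exact sub_eq_zero.1 h0

end Cfsg.Agent.H879.TenS
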